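import Mathlib
import Cfsg.Agent.Lib.Helper19.CY2.Defs

set_option autoImplicit false
set_option linter.unusedSectionVars false

/-! # Ladder CY2S (part STRUCT of CY2 = S4695): definitions

`Pre p b e` : the raw local data at `C = C_G(z) ≤ T1 ≤ N = N_G(⟨z⟩)` (`z ∈ D` of order `p`):
`e1` a block idempotent of `kC` with stabiliser `T1` in `N`, `T1 = ⊔_{j<e} C g0^j`,
`e1 = Tr_D^C(c1)`, `i` an idempotent of `kC e1` with `e1 ∈ kC i kC` and `i kC i = k[y0]`, `y0` nilpotent.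
`YS P` : the normalised generators `y`, `s` of the corner `i kN i`. -/

namespace Cfsg.Agent.Lib.Helper83.CY2S

open Cfsg.Agent.Lib.Helper80 Cfsg.Agent.Lib.Helper80.GA
open scoped BigOperators

/-- `k[y0] i` inside an algebra -/
def L0 (k : Type*) {Λ : Type*} [Field k] [Ring Λ] [Algebra k Λ] (i y0 : Λ) : Submodule k Λ :=
  Submodule.span k (Set.range fun a : ℕ => i * y0 ^ a)

variable {k : Type*} {G : Type*} [Field k] [Group G] [Fintype G]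

/-- raw local data -/
structure Pre (p : ℕ) (b : GA k G) (e : ℕ) where
  N : Subgroup G
  C : Subgroup G
  T1 : Subgroup G
  D : Subgroup G
  z : G
  g0 : G
  e1 : GA k G
  c1 : GA k G
  i : GA k G
  y0 : GA k G
  TC : Finset G
  m : ℕ
  xx : Fin m → GA k G
  yy : Fin m → GA k G
  hDC : D ≤ C
  hCT : C ≤ T1
  hTN : T1 ≤ N
  hnorm : ∀ g ∈ N, ∀ x ∈ C, g * x * g⁻¹ ∈ C
  hz1 : z ≠ 1
  hzp : z ^ p = 1
  hC : ∀ g, g ∈ C ↔ z * g = g * z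
  ti : ∀ g, g ∉ N → ∀ u ∈ D, g⁻¹ * u * g ∈ D → u = 1
  hg0 : g0 ∈ T1
  he : 0 < e
  hek : (e : k) ≠ 0
  hg0e : g0 ^ e ∈ C
  hcos : ∀ g ∈ T1, ∃ j < e, g * (g0 ^ j)⁻¹ ∈ C
  hdist : ∀ j, 0 < j → j < e → g0 ^ j ∉ C
  hb : InZ ⊤ b
  hbb : b * b = b
  he1 : InZ C e1
  he1i : e1 * e1 = e1
  hT1 : ∀ g ∈ T1, cj g e1 = e1
  horth : ∀ g ∈ N, g ∉ T1 → e1 * cj g e1 = 0
  hbe : trunc C b * e1 = e1
  hTC : ∀ t ∈ TC, t ∈ C
  hTC' : ∀ g ∈ C, ∃! t, t ∈ TC ∧ t⁻¹ * g ∈ D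
  hc1 : FixBy D c1
  hc1tr : ∑ t ∈ TC, of t * c1 * of t⁻¹ = e1
  hi : i * i = i
  hi0 : i ≠ 0
  hiC : SuppOn C i
  hie : i * e1 = i
  hxx : ∀ j, SuppOn C (xx j)
  hyy : ∀ j, SuppOn C (yy j)
  hsum : ∑ j, xx j * i * yy j = e1
  hy0C : SuppOn C y0
  hiy : i * y0 = y0
  hyi : y0 * i = y0
  hnil : IsNilpotent y0
  hspan : ∀ r, SuppOn C r → i * r * i ∈ L0 k i y0

/-- normalised generators of the corner -/
structure YS {p : ℕ} {b : GA k G} {e : ℕ} (P : Pre p b e) where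
  y : GA k G
  s : GA k G
  chi : k
  n : ℕ
  hyC : SuppOn P.C y
  hiy : P.i * y = y
  hyi : y * P.i = y
  hn : 2 ≤ n
  hyn : y ^ n = 0
  hyn1 : y ^ (n - 1) ≠ 0
  hsp : ∀ r, SuppOn P.C r → P.i * r * P.i ∈
    Submodule.span k (Set.range fun a : Fin n => P.i * y ^ (a : ℕ))
  his : P.i * s = s
  hsi : s * P.i = s
  hsC : SuppOn P.C (s * of P.g0⁻¹)
  hse : s ^ e = P.i
  hsy : s * y = chi • (y * s)

end Cfsg.Agent.Lib.Helper83.CY2S
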