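import Mathlib
import Cfsg.Agent.Lib.Helper83.CY2S.Defs

set_option autoImplicit false
set_option linter.unusedSectionVars false
set_option linter.unusedVariables false

/-! Ladder CY2S, rung L0 (helper98). -/

namespace Cfsg.Agent.Lib.Helper83.CY2S

open scoped BigOperators

section abs
variable {k Λ : Type*} [Field k] [Ring Λ] [Algebra k Λ] {i y0 : Λ}

theorem l0_pow_mem (a : ℕ) : i * y0 ^ a ∈ L0 k i y0 := Submodule.subset_span ⟨a, rfl⟩

theorem l0_i_mem : i ∈ L0 k i y0 := by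
  have := l0_pow_mem (k := k) (i := i) (y0 := y0) 0
  rwa [pow_zero, mul_one] at this

theorem l0_y_mem (hiy : i * y0 = y0) : y0 ∈ L0 k i y0 := by
  have := l0_pow_mem (k := k) (i := i) (y0 := y0) 1
  rwa [pow_one, hiy] at this

theorem l0_left (hi : i * i = i) {r : Λ} (hr : r ∈ L0 k i y0) : i * r = r := by
  induction hr using Submodule.span_induction with
  | mem x hx =>
    obtain ⟨a, rfl⟩ := hx
    change i * (i * y0 ^ a) = i * y0 ^ a
    rw [← mul_assoc, hi]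
  | zero => rw [mul_zero]
  | add x y _ _ hx hy => rw [mul_add, hx, hy]
  | smul c x _ hx => rw [mul_smul_comm, hx]

theorem l0_aux_comm (hiy : i * y0 = y0) (hyi : y0 * i = y0) (a : ℕ) : y0 ^ a * i = i * y0 ^ a := by
  have h : Commute y0 i := by
    change y0 * i = i * y0
    rw [hiy, hyi]
  exact (h.pow_left a).eq

theorem l0_aux_mul (hi : i * i = i) (hiy : i * y0 = y0) (hyi : y0 * i = y0) (a b : ℕ) :
    (i * y0 ^ a) * (i * y0 ^ b) = i * y0 ^ (a + b) := by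
  rw [mul_assoc, ← mul_assoc (y0 ^ a) i, l0_aux_comm hiy hyi, mul_assoc, ← mul_assoc i i, hi,
    ← pow_add]

theorem l0_right (hi : i * i = i) (hiy : i * y0 = y0) (hyi : y0 * i = y0) {r : Λ}
    (hr : r ∈ L0 k i y0) : r * i = r := by
  induction hr using Submodule.span_induction with
  | mem x hx =>
    obtain ⟨a, rfl⟩ := hx
    change i * y0 ^ a * i = i * y0 ^ a
    rw [mul_assoc, l0_aux_comm hiy hyi, ← mul_assoc, hi]
  | zero => rw [zero_mul]
  | add x y _ _ hx hy => rw [add_mul, hx, hy]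
  | smul c x _ hx => rw [smul_mul_assoc, hx]

theorem l0_aux_both (hi : i * i = i) (hiy : i * y0 = y0) (hyi : y0 * i = y0) {r r' : Λ}
    (hr : r ∈ L0 k i y0) (hr' : r' ∈ L0 k i y0) : r * r' ∈ L0 k i y0 ∧ r * r' = r' * r := by
  induction hr using Submodule.span_induction with
  | mem x hx =>
    obtain ⟨a, rfl⟩ := hx
    change (i * y0 ^ a) * r' ∈ L0 k i y0 ∧ (i * y0 ^ a) * r' = r' * (i * y0 ^ a)
    induction hr' using Submodule.span_induction with
    | mem y hy =>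
      obtain ⟨b, rfl⟩ := hy
      change (i * y0 ^ a) * (i * y0 ^ b) ∈ L0 k i y0 ∧
        (i * y0 ^ a) * (i * y0 ^ b) = (i * y0 ^ b) * (i * y0 ^ a)
      rw [l0_aux_mul hi hiy hyi, l0_aux_mul hi hiy hyi, add_comm b a]
      exact ⟨l0_pow_mem _, rfl⟩
    | zero => rw [mul_zero, zero_mul]; exact ⟨Submodule.zero_mem _, rfl⟩
    | add x y _ _ hx hy =>
      rw [mul_add, add_mul, hx.2, hy.2]
      exact ⟨Submodule.add_mem _ (hx.2 ▸ hx.1) (hy.2 ▸ hy.1), rfl⟩
    | smul c x _ hx =>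
      rw [mul_smul_comm, smul_mul_assoc, hx.2]
      exact ⟨Submodule.smul_mem _ c (hx.2 ▸ hx.1), rfl⟩
  | zero => rw [mul_zero, zero_mul]; exact ⟨Submodule.zero_mem _, rfl⟩
  | add x y _ _ hx hy =>
    rw [mul_add, add_mul, hx.2, hy.2]
    exact ⟨Submodule.add_mem _ (hx.2 ▸ hx.1) (hy.2 ▸ hy.1), rfl⟩
  | smul c x _ hx =>
    rw [mul_smul_comm, smul_mul_assoc, hx.2]
    exact ⟨Submodule.smul_mem _ c (hx.2 ▸ hx.1), rfl⟩

theorem l0_mul (hi : i * i = i) (hiy : i * y0 = y0) (hyi : y0 * i = y0) {r r' : Λ}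
    (hr : r ∈ L0 k i y0) (hr' : r' ∈ L0 k i y0) : r * r' ∈ L0 k i y0 :=
  (l0_aux_both hi hiy hyi hr hr').1

theorem l0_comm (hi : i * i = i) (hiy : i * y0 = y0) (hyi : y0 * i = y0) {r r' : Λ}
    (hr : r ∈ L0 k i y0) (hr' : r' ∈ L0 k i y0) : r * r' = r' * r :=
  (l0_aux_both hi hiy hyi hr hr').2

/-- `i y0^0 = i`, `i y0^(a+1) = y0 * (i y0^a)`. -/
theorem l0_decomp (hi : i * i = i) (hiy : i * y0 = y0) (hyi : y0 * i = y0) {r : Λ}
    (hr : r ∈ L0 k i y0) : ∃ c : k, ∃ r' ∈ L0 k i y0, r = c • i + y0 * r' := by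
  induction hr using Submodule.span_induction with
  | mem x hx =>
    obtain ⟨a, rfl⟩ := hx
    change ∃ c : k, ∃ r' ∈ L0 k i y0, i * y0 ^ a = c • i + y0 * r'
    cases a with
    | zero => exact ⟨1, 0, Submodule.zero_mem _, by simp⟩
    | succ a =>
      refine ⟨0, i * y0 ^ a, l0_pow_mem a, ?_⟩
      rw [zero_smul, zero_add, ← mul_assoc, hyi, pow_succ', ← mul_assoc, hiy]
  | zero => exact ⟨0, 0, Submodule.zero_mem _, by simp⟩
  | add x y _ _ hx hy =>
    obtain ⟨c, r1, h1, rfl⟩ := hx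
    obtain ⟨d, r2, h2, rfl⟩ := hy
    exact ⟨c + d, r1 + r2, Submodule.add_mem _ h1 h2, by rw [add_smul, mul_add]; abel⟩
  | smul c x _ hx =>
    obtain ⟨d, r1, h1, rfl⟩ := hx
    exact ⟨c * d, c • r1, Submodule.smul_mem _ c h1, by
      rw [smul_add, smul_smul, mul_smul_comm]⟩

/-- `y0` and `r'` commute. -/
theorem l0_nil (hi : i * i = i) (hiy : i * y0 = y0) (hyi : y0 * i = y0) (hnil : IsNilpotent y0)
    {r' : Λ} (hr' : r' ∈ L0 k i y0) : IsNilpotent (y0 * r') :=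
  Commute.isNilpotent_mul_right (l0_comm hi hiy hyi (l0_y_mem hiy) hr') hnil

theorem l0_pow (hi : i * i = i) (hiy : i * y0 = y0) (hyi : y0 * i = y0) {r : Λ}
    (hr : r ∈ L0 k i y0) (j : ℕ) : i * r ^ j ∈ L0 k i y0 := by
  induction j with
  | zero => rw [pow_zero, mul_one]; exact l0_i_mem
  | succ j ih => rw [pow_succ, ← mul_assoc]; exact l0_mul hi hiy hyi ih hr

/-- geometric series: `ν := -c⁻¹ • y0 r'` nilpotent in `L0`, `w := c⁻¹ • ∑_{j<M} i ν^j`. -/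
theorem l0_inv (hi : i * i = i) (hiy : i * y0 = y0) (hyi : y0 * i = y0) (hnil : IsNilpotent y0)
    {c : k} (hc : c ≠ 0) {r' : Λ} (hr' : r' ∈ L0 k i y0) :
    ∃ w ∈ L0 k i y0, (c • i + y0 * r') * w = i := by
  obtain ⟨M, hM⟩ := l0_nil hi hiy hyi hnil hr'
  obtain ⟨ν, hν⟩ : ∃ ν, ν = (-c⁻¹) • (y0 * r') := ⟨_, rfl⟩
  have hνL : ν ∈ L0 k i y0 := by
    rw [hν]
    exact Submodule.smul_mem _ _ (l0_mul hi hiy hyi (l0_y_mem hiy) hr')
  have hνM : ν ^ M = 0 := by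
    rw [hν, smul_pow, hM, smul_zero]
  have hgeo : (1 - ν) * ∑ j ∈ Finset.range M, ν ^ j = 1 := by
    rw [mul_neg_geom_sum, hνM, sub_zero]
  have hiν : i * ν = ν := l0_left hi hνL
  have hνi : ν * i = ν := l0_right hi hiy hyi hνL
  have hform : c • i + y0 * r' = c • (i * (1 - ν)) := by
    rw [mul_sub, mul_one, hiν, hν, smul_sub, smul_smul, mul_neg, mul_inv_cancel₀ hc, neg_smul,
      one_smul, sub_neg_eq_add]
  refine ⟨c⁻¹ • (i * ∑ j ∈ Finset.range M, ν ^ j), ?_, ?_⟩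
  · apply Submodule.smul_mem
    rw [Finset.mul_sum]
    exact Submodule.sum_mem _ (fun j _ => l0_pow hi hiy hyi hνL j)
  · have hcomm : (1 - ν) * i = i * (1 - ν) := by
      rw [sub_mul, one_mul, hνi, mul_sub, mul_one, hiν]
    rw [hform, smul_mul_smul_comm, mul_inv_cancel₀ hc, one_smul, mul_assoc, ← mul_assoc (1 - ν) i,
      hcomm, mul_assoc, hgeo, mul_one, hi]

end abs

end Cfsg.Agent.Lib.Helper83.CY2S
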