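import Mathlib
import Cfsg.Agent.Lib.Helper83.CY2S.Defs

set_option autoImplicit false
set_option linter.unusedSectionVars false
set_option linter.unusedVariables false

/-! Ladder CY2S, rung DED (helper98). -/

namespace Cfsg.Agent.Lib.Helper83.CY2S

section abs
variable {k Λ : Type*} [Field k] [Ring Λ] [Algebra k Λ] {i y0 : Λ}

theorem ded [FiniteDimensional k Λ] (hi : i * i = i) {s0 t0 : Λ} (his : i * s0 = s0)
    (hsi : s0 * i = s0) (hit : i * t0 = t0) (hti : t0 * i = t0) (hst : s0 * t0 = i) :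
    t0 * s0 = i := by
  have h1 : (s0 + (1 - i)) * (t0 + (1 - i)) = 1 := by
    have : (s0 + (1 - i)) * (t0 + (1 - i))
        = s0 * t0 + (s0 - s0 * i) + (t0 - i * t0) + (1 - i - i + i * i) := by noncomm_ring
    rw [this, hst, hsi, hit, hi]
    abel
  have hN : IsNoetherianRing Λ := IsNoetherianRing.of_finite k Λ
  have h4 : (t0 + (1 - i)) * (s0 + (1 - i)) = 1 := mul_eq_one_comm.mp h1
  have h5 : (t0 + (1 - i)) * (s0 + (1 - i))
      = t0 * s0 + (t0 - t0 * i) + (s0 - i * s0) + (1 - i - i + i * i) := by noncomm_ring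
  rw [h5, hti, his, hi] at h4
  have h6 : t0 * s0 + (t0 - t0) + (s0 - s0) + (1 - i - i + i) = t0 * s0 + (1 - i) := by abel
  rw [h6] at h4
  have h7 : t0 * s0 = 1 - (1 - i) := eq_sub_of_add_eq h4
  rw [h7]; abel

end abs

end Cfsg.Agent.Lib.Helper83.CY2S
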