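import Mathlib
import Cfsg.Agent.Lib.Helper83.CY2S.Defs
import Cfsg.Agent.Lib.Helper98.Cyc1UNI

set_option autoImplicit false
set_option linter.unusedSectionVars false
set_option linter.unusedVariables false

/-! Ladder CY2S (helper83), rung POLY (helper86). -/

namespace Cfsg.Agent.Lib.Helper83.CY2S

open Cfsg Cfsg.Agent.Lib.Helper80 Cfsg.Agent.Lib.Helper80.GA
open scoped BigOperators

section abs
variable {k Λ : Type*} [Field k] [Ring Λ] [Algebra k Λ] {i y0 : Λ}

theorem poly (S : Submodule k Λ) (N : ℕ) (hN : S ^ N = ⊥) (x : Λ) (hx : x ∈ S)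
    (h : S ≤ Submodule.span k {x} ⊔ S * S) (ι : Λ) (hι : ∀ a ∈ S, ι * a = a) :
    S ≤ L0 k ι x := by
  have hP : ∀ m : ℕ, Submodule.span k {x ^ (m + 1)} ≤ L0 k ι x := by
    intro m
    rw [Submodule.span_singleton_le_iff_mem]
    refine Submodule.subset_span ⟨m + 1, ?_⟩
    change ι * x ^ (m + 1) = x ^ (m + 1)
    rw [pow_succ', ← mul_assoc, hι x hx]
  have h2 : ∀ m : ℕ, S ≤ L0 k ι x ⊔ S ^ (m + 1) := by
    intro m
    induction m with
    | zero => rw [zero_add, pow_one]; exact le_sup_right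
    | succ m ih =>
      refine ih.trans (sup_le le_sup_left ?_)
      exact (Cfsg.Agent.Lib.Helper98.Cyc1.uni_key S x hx h m).trans
        (sup_le ((hP _).trans le_sup_left) le_sup_right)
  have := h2 N
  rwa [pow_succ, hN, Submodule.bot_mul, sup_bot_eq] at this

end abs

end Cfsg.Agent.Lib.Helper83.CY2S
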