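import Mathlib
import Cfsg.Agent.Lib.Helper83.CY2S.Defs
import Cfsg.Agent.Lib.Helper83.CY2S.POLY
import Cfsg.Agent.Lib.Helper78.Cyc1Core

set_option autoImplicit false
set_option linter.unusedSectionVars false
set_option linter.unusedVariables false

/-! Ladder CY2S (helper83), rung CORE (helper86): copy of `Helper78.Cyc1.abs_unital_cyc`. -/

namespace Cfsg.Agent.Lib.Helper83.CY2S

open Module
open Cfsg.Agent.Lib.Helper78.Cyc1
open Cfsg.Agent.Lib.Helper36.Cyc1 Cfsg.Agent.Lib.Helper56.Cyc1 Cfsg.Agent.Lib.Helper98.Cyc1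
open scoped BigOperators

theorem core {F A : Type*} [Field F] [IsAlgClosed F] [Ring A] [Algebra F A]
    [FiniteDimensional F A] [Nontrivial A]
    (hl : ∀ f₁ f₂ : A →ₗ[F] F, (∀ x y, f₁ (x * y) = f₁ (y * x)) →
      (∀ x y, f₂ (x * y) = f₂ (y * x)) → (∀ x, IsNilpotent x → f₁ x = 0) →
      (∀ x, IsNilpotent x → f₂ x = 0) → ¬ LinearIndependent F ![f₁, f₂])
    {G : Type*} [Group G] (ρ : G →* A)
    (hspan : Submodule.span F (Set.range ρ) = ⊤) (u : G) (hu : IsNilpotent (ρ u - 1))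
    (c : A) (hc : c * ρ u = ρ u * c)
    (T : Finset G) (hT : ∀ g : G, ∃! t, t ∈ T ∧ t⁻¹ * g ∈ Subgroup.zpowers u)
    (htr : ∑ t ∈ T, ρ t * c * ρ t⁻¹ = 1) :
    ∃ (ι y0 : A) (m : ℕ) (x y : Fin m → A), ι * ι = ι ∧ ι ≠ 0 ∧ ∑ j, x j * ι * y j = 1 ∧
      ι * y0 = y0 ∧ y0 * ι = y0 ∧ IsNilpotent y0 ∧ ∀ r, ι * r * ι ∈ L0 F ι y0 := by
  have hart : IsArtinianRing A := IsArtinianRing.of_finite F A
  have hJ : IsNilpotent (Ring.jacobson A) := IsSemiprimaryRing.isNilpotent
  obtain ⟨n, hn, π, hπ, hker⟩ := Cfsg.Agent.Lib.Helper54.Kuls.exists_matrix_quot hl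
  obtain ⟨e, x, y, he, hπe, h1⟩ :=
    Cfsg.Agent.Lib.Helper29.Brandt.exists_resolution π hπ _ hJ hker
  set J := Ring.jacobson A with hJdef
  set S := J0 F J e with hS
  have heJ : e ∉ J := by
    intro h
    rw [← hker, hπe] at h
    have := congrFun (congrFun h 0) 0
    simp at this
  obtain ⟨N, hN⟩ := J0_pow_eq_bot (F := F) J hJ e
  have hgen : ∃ x ∈ S, S ≤ Submodule.span F {x} ⊔ S * S := by
    by_contra h
    push Not at h
    obtain ⟨x0, hx0, hx0'⟩ := SetLike.not_le_iff_exists.1 (h 0 S.zero_mem)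
    obtain ⟨y0, hy0, hy0'⟩ := SetLike.not_le_iff_exists.1 (h x0 hx0)
    have hx0'' : x0 ∉ S * S := fun hh => hx0' (Submodule.mem_sup_right hh)
    have hind : ∀ α β : F, α • x0 + β • y0 ∈ S * S → α = 0 ∧ β = 0 := by
      intro α β hαβ
      have hβ : β = 0 := by
        by_contra hβ
        apply hy0'
        have h2 : y0 = (-(β⁻¹ * α)) • x0 + β⁻¹ • (α • x0 + β • y0) := by
          rw [smul_add, smul_smul, smul_smul, inv_mul_cancel₀ hβ, one_smul, neg_smul]
          abel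
        rw [h2]
        exact Submodule.add_mem _
          (Submodule.mem_sup_left (Submodule.smul_mem _ _ (Submodule.mem_span_singleton_self _)))
          (Submodule.mem_sup_right (Submodule.smul_mem _ _ hαβ))
      refine ⟨?_, hβ⟩
      by_contra hα
      apply hx0''
      rw [hβ, zero_smul, add_zero] at hαβ
      have := Submodule.smul_mem _ α⁻¹ hαβ
      rwa [smul_smul, inv_mul_cancel₀ hα, one_smul] at this
    have hmem : ∀ μ : F, ∀ a ∈ Lmu J e x0 y0 μ, a * e ∈ J :=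
      fun μ => Lmu_mul_mem J e he x0 y0 hx0 hy0 μ
    refine no_infinite_family ρ hspan u hu c hc T hT htr (κ := F)
      (fun μ => Lmu J e x0 y0 μ) ?_ ?_ ?_
    · intro μ htop
      apply heJ
      have := hmem μ 1 (by rw [htop]; trivial)
      rwa [one_mul] at this
    · intro μ
      exact local_of π hπ J hJ hker e he hπe _
        (Ideal.subset_span (Set.mem_insert _ _)) (hmem μ)
    · intro μ ν hμν
      exact not_iso π J hker e he hπe x0 y0 hx0 hy0 hind μ ν hμν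
  obtain ⟨x0, hx0, hx2⟩ := hgen
  have hSL : S ≤ L0 F e x0 := poly S N hN x0 hx0 hx2 e (fun a ha => ha.2.1)
  have he0 : e ≠ 0 := by
    rintro rfl
    exact heJ J.zero_mem
  have hnil : IsNilpotent x0 := by
    obtain ⟨M, hM⟩ := hJ
    refine ⟨M, ?_⟩
    have h3 : x0 ^ M ∈ J ^ M := Ideal.pow_mem_pow hx0.1 M
    rw [hM] at h3
    simpa using h3
  refine ⟨e, x0, _, x, y, he, he0, h1, hx0.2.1, hx0.2.2, hnil, ?_⟩
  intro r
  have hr := corner_decomp π J hker e he hπe r
  have e1 : e * r * e = π r 0 0 • e + (e * r * e - π r 0 0 • e) := by abel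
  rw [e1]
  refine Submodule.add_mem _ (Submodule.smul_mem _ _ ?_) (hSL hr)
  exact Submodule.subset_span ⟨0, by simp⟩

end Cfsg.Agent.Lib.Helper83.CY2S
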