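import Mathlib
import Cfsg.Agent.Lib.Helper83.CY2S.Defs
import Cfsg.Agent.Lib.Helper83.CY2S.CORE

set_option autoImplicit false
set_option linter.unusedSectionVars false
set_option linter.unusedVariables false

/-! Ladder CY2S (helper83), rung REL (helper86): the relative version of `core`. -/

universe u v

namespace Cfsg.Agent.Lib.Helper83.CY2S

open Module
open scoped BigOperators

theorem rel {F : Type v} {R : Type u} [Field F] [IsAlgClosed F] [Ring R] [Algebra F R]
    [FiniteDimensional F R]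
    (b : R) (hbb : b * b = b) (hbc : ∀ x, b * x = x * b) (hb0 : b ≠ 0)
    (hl : ∀ f₁ f₂ : R →ₗ[F] F, (∀ x y, f₁ (x * y) = f₁ (y * x)) →
      (∀ x y, f₂ (x * y) = f₂ (y * x)) → (∀ x, f₁ (b * x) = f₁ x) → (∀ x, f₂ (b * x) = f₂ x) →
      (∀ x, IsNilpotent x → f₁ x = 0) → (∀ x, IsNilpotent x → f₂ x = 0) →
      ¬ LinearIndependent F ![f₁, f₂])
    {G : Type*} [Group G] (ρ : G →* R)
    (hspan : Submodule.span F (Set.range ρ) = ⊤) (u : G) (hu : IsNilpotent (ρ u - 1))
    (c : R) (hc : c * ρ u = ρ u * c)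
    (T : Finset G) (hT : ∀ g : G, ∃! t, t ∈ T ∧ t⁻¹ * g ∈ Subgroup.zpowers u)
    (htr : ∑ t ∈ T, ρ t * c * ρ t⁻¹ = b) :
    ∃ (ι y0 : R) (m : ℕ) (x y : Fin m → R), ι * ι = ι ∧ ι ≠ 0 ∧ ι * b = ι ∧
      ∑ j, x j * ι * y j = b ∧ ι * y0 = y0 ∧ y0 * ι = y0 ∧ IsNilpotent y0 ∧
      ∀ r, ι * r * ι ∈ L0 F ι y0 := by
  let I : Ideal R :=
    { carrier := {x | b * x = 0}
      add_mem' := fun {x y} hx hy => by
        show b * (x + y) = 0
        rw [mul_add, show b * x = 0 from hx, show b * y = 0 from hy, add_zero]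
      zero_mem' := mul_zero b
      smul_mem' := fun c x hx => by
        show b * (c * x) = 0
        rw [← mul_assoc, hbc c, mul_assoc, show b * x = 0 from hx, mul_zero] }
  have hI : ∀ x, x ∈ I ↔ b * x = 0 := fun x => Iff.rfl
  have : I.IsTwoSided := ⟨fun {x} r hx => by
    show b * (x * r) = 0
    rw [← mul_assoc, show b * x = 0 from hx, zero_mul]⟩
  let mk : R →ₐ[F] (R ⧸ I) := Ideal.Quotient.mkₐ F I
  have hmk : Function.Surjective mk := Ideal.Quotient.mkₐ_surjective F I
  have hmk0 : ∀ x, mk x = 0 ↔ b * x = 0 := fun x => by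
    show Ideal.Quotient.mk I x = 0 ↔ _
    rw [Ideal.Quotient.eq_zero_iff_mem, hI]
  have hmkeq : ∀ x y, mk x = mk y → b * x = b * y := fun x y h => by
    have : mk (x - y) = 0 := by rw [map_sub, h, sub_self]
    rw [hmk0, mul_sub, sub_eq_zero] at this
    exact this
  have hmkb : mk b = 1 := by
    have : mk (b - 1) = 0 := by
      rw [hmk0, mul_sub, hbb, mul_one, sub_self]
    rw [map_sub, map_one, sub_eq_zero] at this
    exact this
  let σ : (R ⧸ I) → R := Function.surjInv hmk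
  have hσ : ∀ a, mk (σ a) = a := Function.surjInv_eq hmk
  have hσb : ∀ x, b * σ (mk x) = b * x := fun x => hmkeq _ _ (hσ _)
  let φ : (R ⧸ I) →ₗ[F] R :=
    { toFun := fun a => b * σ a
      map_add' := fun a a' => by
        obtain ⟨x, rfl⟩ := hmk a
        obtain ⟨y, rfl⟩ := hmk a'
        rw [← map_add, hσb, hσb, hσb, mul_add]
      map_smul' := fun c a => by
        obtain ⟨x, rfl⟩ := hmk a
        rw [← map_smul, hσb, hσb, mul_smul_comm, RingHom.id_apply] }
  have hφ : ∀ x, φ (mk x) = b * x := fun x => hσb x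
  have hφinj : Function.Injective φ := by
    intro a a' h
    obtain ⟨x, rfl⟩ := hmk a
    obtain ⟨y, rfl⟩ := hmk a'
    rw [hφ, hφ] at h
    have : mk (x - y) = 0 := by rw [hmk0, mul_sub, h, sub_self]
    rwa [map_sub, sub_eq_zero] at this
  have hnt : Nontrivial (R ⧸ I) := by
    refine nontrivial_of_ne 1 0 ?_
    intro h
    rw [← hmkb, hmk0, hbb] at h
    exact hb0 h
  have hφmul : ∀ a a', φ (a * a') = φ a * φ a' := by
    intro a a'
    obtain ⟨x, rfl⟩ := hmk a
    obtain ⟨y, rfl⟩ := hmk a'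
    rw [← map_mul, hφ, hφ, hφ]
    calc b * (x * y) = b * b * (x * y) := by rw [hbb]
      _ = b * (b * x) * y := by simp only [mul_assoc]
      _ = b * (x * b) * y := by rw [hbc x]
      _ = b * x * (b * y) := by simp only [mul_assoc]
  have hφ1 : φ 1 = b := by rw [← map_one mk, hφ, mul_one]
  have hφb : ∀ a, φ a * b = φ a := by
    intro a
    obtain ⟨x, rfl⟩ := hmk a
    rw [hφ, ← hbc, ← mul_assoc, hbb]
  have hlA : ∀ f₁ f₂ : (R ⧸ I) →ₗ[F] F, (∀ x y, f₁ (x * y) = f₁ (y * x)) →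
        (∀ x y, f₂ (x * y) = f₂ (y * x)) → (∀ x, IsNilpotent x → f₁ x = 0) →
        (∀ x, IsNilpotent x → f₂ x = 0) → ¬ LinearIndependent F ![f₁, f₂] := by
    intro f₁ f₂ h₁ h₂ hn₁ hn₂ hli
    apply hl (f₁.comp mk.toLinearMap) (f₂.comp mk.toLinearMap)
    · intro x y
      simp only [LinearMap.comp_apply, AlgHom.toLinearMap_apply, map_mul]
      exact h₁ _ _
    · intro x y
      simp only [LinearMap.comp_apply, AlgHom.toLinearMap_apply, map_mul]
      exact h₂ _ _
    · intro x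
      simp only [LinearMap.comp_apply, AlgHom.toLinearMap_apply, map_mul, hmkb, one_mul]
    · intro x
      simp only [LinearMap.comp_apply, AlgHom.toLinearMap_apply, map_mul, hmkb, one_mul]
    · intro x hx
      exact hn₁ _ (hx.map mk)
    · intro x hx
      exact hn₂ _ (hx.map mk)
    · rw [LinearIndependent.pair_iff] at hli ⊢
      intro s t' hst
      apply hli
      apply LinearMap.ext
      intro a
      obtain ⟨x, rfl⟩ := hmk a
      exact LinearMap.congr_fun hst x
  obtain ⟨ι', y0', m, x', y', c1, c2, c3, c4, c5, c6, c7⟩ :=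
    core hlA ((mk : R →* (R ⧸ I)).comp ρ) (by
      rw [eq_top_iff]
      intro y _
      obtain ⟨x, rfl⟩ := hmk y
      have hx : x ∈ Submodule.span F (Set.range ρ) := by
        rw [hspan]; trivial
      have := Submodule.mem_map_of_mem (f := mk.toLinearMap) hx
      rw [Submodule.map_span] at this
      refine Submodule.span_mono ?_ this
      rintro _ ⟨_, ⟨g, rfl⟩, rfl⟩
      exact ⟨g, rfl⟩) u (by
      change IsNilpotent (mk (ρ u) - 1)
      have := hu.map mk
      rwa [map_sub, map_one] at this) (mk c) (by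
      change mk c * mk (ρ u) = mk (ρ u) * mk c
      rw [← map_mul, ← map_mul, hc]) T hT (by
      change ∑ t ∈ T, mk (ρ t) * mk c * mk (ρ t⁻¹) = 1
      simp only [← map_mul, ← map_sum]
      rw [htr, hmkb])
  have hpow : ∀ a : ℕ, φ ι' * φ (y0' ^ a) = φ ι' * φ y0' ^ a := by
    intro a
    induction a with
    | zero => rw [pow_zero, pow_zero, hφ1, hφb, mul_one]
    | succ a ih => rw [pow_succ, pow_succ, hφmul, ← mul_assoc, ih, mul_assoc]
  refine ⟨φ ι', φ y0', m, fun j => φ (x' j), fun j => φ (y' j), ?_, ?_, hφb _, ?_, ?_, ?_, ?_, ?_⟩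
  · rw [← hφmul, c1]
  · intro h
    apply c2
    apply hφinj
    rw [h, map_zero]
  · simp only [← hφmul]
    rw [← map_sum, c3, hφ1]
  · rw [← hφmul, c4]
  · rw [← hφmul, c5]
  · obtain ⟨M, hM⟩ := c6
    refine ⟨M + 1, ?_⟩
    have h3 : φ y0' ^ (M + 1) = φ ι' * φ y0' ^ (M + 1) := by
      rw [pow_succ', ← mul_assoc, ← hφmul, c4]
    rw [h3, ← hpow, pow_succ, hM, zero_mul, map_zero, mul_zero]
  · intro r
    have e1 : φ ι' * r * φ ι' = φ (ι' * mk r * ι') := by
      rw [hφmul, hφmul, hφ, ← mul_assoc, hφb]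
    rw [e1]
    have hle : L0 F ι' y0' ≤ (L0 F (φ ι') (φ y0')).comap φ := Submodule.span_le.2 (by
      rintro _ ⟨a, rfl⟩
      change φ (ι' * y0' ^ a) ∈ L0 F (φ ι') (φ y0')
      rw [hφmul, hpow]
      exact Submodule.subset_span ⟨a, rfl⟩)
    exact hle (c7 (mk r))

end Cfsg.Agent.Lib.Helper83.CY2S
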