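import Mathlib
import Cfsg.Agent.Lib.Helper83.CY2S.Defs
import Cfsg.Agent.Lib.Helper83.CY2S.REL
import Cfsg.Agent.Lib.Helper78.Cyc1Deg

set_option autoImplicit false
set_option linter.unusedSectionVars false
set_option linter.unusedVariables false

namespace Cfsg.Agent.Lib.Helper83.CY2S

open Cfsg Cfsg.Agent.Lib.Helper80 Cfsg.Agent.Lib.Helper80.GA
open Cfsg.Agent.Lib.Helper78.Cyc1 Cfsg.Agent.Lib.Helper78.Kuls Cfsg.Agent.Lib.Helper66.Cyc1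
open scoped BigOperators

/-- RUNG LOCB -/
theorem locb {p : ℕ} {M : Ideal AlgInt} {L : Type*} [Group L] [Fintype L] (hM : IsPModular p M)
    {β : Set (IrrCharacter L)} (hβ : IsPBlock M β) (hl : blockRank p β = 1) {P : Subgroup L}
    (hdef : IsDef p ⊤ (blkR hM β) P) (hcyc : IsCyclic P) :
    ∃ (T : Finset L) (c ι y0 : GA (Kr hM) L) (m : ℕ) (x y : Fin m → GA (Kr hM) L),
      (∀ g : L, ∃! t, t ∈ T ∧ t⁻¹ * g ∈ P) ∧ FixBy P c ∧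
      ∑ t ∈ T, of t * c * of t⁻¹ = blkR hM β ∧ ι * ι = ι ∧ ι ≠ 0 ∧ ι * blkR hM β = ι ∧
      ∑ j, x j * ι * y j = blkR hM β ∧ ι * y0 = y0 ∧ y0 * ι = y0 ∧ IsNilpotent y0 ∧
      ∀ r, ι * r * ι ∈ L0 (Kr hM) ι y0 := by
  classical
  have : Fact p.Prime := ⟨hM.1⟩
  have hbc : ∀ x, blkR hM β * x = x * blkR hM β := by
    intro x
    exact (GA.commute_of_suppOn_fixBy (H := ⊤)
      (fun g hg => absurd (Subgroup.mem_top g) hg) (blkR_inZ hM _).2).symm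
  obtain ⟨u, huP, hugen⟩ : ∃ y ∈ P, ∀ x ∈ P, x ∈ Subgroup.zpowers y := by
    obtain ⟨g, hg⟩ := hcyc.exists_generator
    refine ⟨g, g.2, fun x hx => ?_⟩
    obtain ⟨k, hk⟩ := Subgroup.mem_zpowers_iff.1 (hg ⟨x, hx⟩)
    exact Subgroup.mem_zpowers_iff.2 ⟨k, by simpa using congrArg Subtype.val hk⟩
  have hPu : P = Subgroup.zpowers u :=
    le_antisymm hugen (by rw [Subgroup.zpowers_le]; exact huP)
  obtain ⟨a, hua⟩ : ∃ a : ℕ, u ^ (p ^ a) = 1 := by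
    obtain ⟨a, ha⟩ := hdef.pgroup ⟨u, huP⟩
    exact ⟨a, by simpa using congrArg Subtype.val ha⟩
  obtain ⟨T, c, hT, hcfix, htr⟩ := exists_trace (p := p) (blkR_inZ hM β).2 hdef.zd
  have hnt : Nontrivial (GA (Kr hM) L) := ⟨⟨blkR hM β, 0, blkR_ne_zero hM hβ⟩⟩
  obtain ⟨ι, y0, m, x, y, h1, h2, h3, h4, h5, h6, h7, h8⟩ :=
    rel (blkR hM β) (blkR_idem hM hβ) hbc (blkR_ne_zero hM hβ)
      (fun f₁ f₂ h₁ h₂ hb₁ hb₂ hn₁ hn₂ => not_indep_of_rank_one hM hβ hl f₁ f₂ h₁ h₂ hb₁ hb₂ hn₁ hn₂)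
      (ofHom (Kr hM) L) span_range_ofHom u
      (isNilpotent_of_sub_one (k := Kr hM) p _ u a hua) c
      ((GA.cj_eq_iff_commute u c).1 (hcfix u huP)).symm T (by rw [← hPu]; exact hT) htr
  exact ⟨T, c, ι, y0, m, x, y, hT, hcfix, htr, h1, h2, h3, h4, h5, h6, h7, h8⟩

end Cfsg.Agent.Lib.Helper83.CY2S
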