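import Cfsg.Agent.Lib.Helper83.CY2S.LOC
import Cfsg.Agent.Lib.Helper83.CY2S.LOCB

set_option autoImplicit false
set_option linter.unusedSectionVars false
set_option linter.unusedVariables false

/-! # Ladder CY2S: `exists_pre` (local block facts + corner of the local block, transported by `emb`) -/

namespace Cfsg.Agent.Lib.Helper83.CY2S

open scoped BigOperators
open Cfsg Cfsg.Agent.Lib.Helper20 Cfsg.Agent.Lib.Helper81 Cfsg.Agent.Lib.Helper80
open Cfsg.Agent.Lib.Helper80.GA Cfsg.Agent.Lib.Helper5 Cfsg.Agent.Lib.Helper83.Wat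
open Cfsg.Agent.Lib.Helper82.CY2U

section emb
variable {k : Type*} {G : Type*} [Field k] [Group G] [Fintype G] (H : Subgroup G) [Fintype H]

theorem pre_emb_sum {ι : Type*} (s : Finset ι) (f : ι → GA k H) :
    emb H (∑ j ∈ s, f j) = ∑ j ∈ s, emb H (f j) := by
  classical
  induction s using Finset.induction_on with
  | empty => simp [emb_zero]
  | insert a s ha ih => rw [Finset.sum_insert ha, Finset.sum_insert ha, emb_add, ih]

theorem pre_emb_L0 {i y0 r : GA k H} (hr : r ∈ L0 k i y0) :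
    emb H r ∈ L0 k (emb H i) (emb H y0) := by
  unfold L0 at hr ⊢
  induction hr using Submodule.span_induction with
  | mem x hx =>
    obtain ⟨a, rfl⟩ := hx
    apply Submodule.subset_span
    exact ⟨a, by simp only [emb_mul, emb_pow]⟩
  | zero => rw [emb_zero]; exact Submodule.zero_mem _
  | add x y _ _ hx hy => rw [emb_add]; exact Submodule.add_mem _ hx hy
  | smul c x _ hx => rw [emb_smul]; exact Submodule.smul_mem _ _ hx

end emb

variable {p : ℕ} [Fact p.Prime] {M : Ideal AlgInt} {G : Type*} [Group G] [Fintype G]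

theorem exists_pre (hM : IsPModular p M) {B : Set (IrrCharacter G)} (hB : IsPBlock M B)
    {D : Subgroup G} (hPD : IsDefectGroup p M B D) (hcyc : IsCyclic D) (hD1 : D ≠ ⊥)
    {eD : GA (Kr hM) G} (hmax : IsMaxBP p (blkR hM B) D eD) :
    Nonempty (Pre p (blkR hM B) ((Cn D).relIndex (stabP D eD))) := by
  classical
  have hp : p.Prime := Fact.out
  obtain ⟨z, β, h⟩ := exists_lpre hM hB hPD hcyc hD1 hmax
  have : Fintype (Cn (Subgroup.zpowers z)) := Fintype.ofFinite _
  obtain ⟨g0, hg0, hpos, hek, hg0e, hcos, hdist⟩ := loc_g0 hM hcyc hD1 hmax h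
  obtain ⟨T, c, ι, y0, m, x, y, hT, hc, htr, hι, hι0, hιb, hsum, hιy, hyι, hnil, hsp⟩ :=
    locb hM h.blk (loc_rank hM h) (loc_def hM h) (loc_cyc hM hcyc h)
  have hbp := loc_bp hM hmax h
  have hbl : bl hM (Cn (Subgroup.zpowers z)) β = emb (Cn (Subgroup.zpowers z)) (blkR hM β) :=
    bl_eq_emb hM _ β
  have hz1 : z ≠ 1 := by
    intro h1
    have := h.zo
    rw [h1, orderOf_one] at this
    exact hp.one_lt.ne this
  have hDC := loc_le hM hcyc h
  refine ⟨{
    N := Nn (Subgroup.zpowers z)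
    C := Cn (Subgroup.zpowers z)
    T1 := stabP (Subgroup.zpowers z) (bl hM (Cn (Subgroup.zpowers z)) β)
    D := D
    z := z
    g0 := g0
    e1 := bl hM (Cn (Subgroup.zpowers z)) β
    c1 := emb _ c
    i := emb _ ι
    y0 := emb _ y0
    TC := T.map (Function.Embedding.subtype _)
    m := m
    xx := fun j => emb _ (x j)
    yy := fun j => emb _ (y j)
    hDC := hDC
    hCT := Cn_le_stabP hbp.1.2.inZ
    hTN := stabP_le_Nn _ _
    hnorm := fun g hg x hx => (Subgroup.mem_normalizer_iff.1 (Nn_le_normalizer_Cn _ hg) x).1 hx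
    hz1 := hz1
    hzp := by rw [← h.zo]; exact pow_orderOf_eq_one z
    hC := ?_
    ti := loc_ti hM hcyc hD1 hmax h
    hg0 := hg0
    he := hpos
    hek := hek
    hg0e := hg0e
    hcos := hcos
    hdist := hdist
    hb := blkR_inZ hM B
    hbb := blkR_idem hM hB
    he1 := hbp.1.2.inZ
    he1i := hbp.1.2.idem
    hT1 := fun g hg => (mem_stabP.1 hg).2
    horth := loc_orth hM hmax h
    hbe := hbp.2.2
    hTC := ?_
    hTC' := ?_
    hc1 := ?_
    hc1tr := ?_
    hi := by rw [← emb_mul, hι]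
    hi0 := fun h0 => hι0 ((emb_eq_zero_iff _ _).1 h0)
    hiC := emb_suppOn _ _
    hie := by rw [hbl, ← emb_mul, hιb]
    hxx := fun j => emb_suppOn _ _
    hyy := fun j => emb_suppOn _ _
    hsum := ?_
    hy0C := emb_suppOn _ _
    hiy := by rw [← emb_mul, hιy]
    hyi := by rw [← emb_mul, hyι]
    hnil := ?_
    hspan := ?_ }⟩
  · intro g
    rw [mem_Cn]
    constructor
    · intro hg
      exact hg z (Subgroup.mem_zpowers z)
    · intro hg u hu
      obtain ⟨n, rfl⟩ := Subgroup.mem_zpowers_iff.1 hu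
      exact (Commute.zpow_left (show Commute z g from hg) n).eq
  · intro t ht
    obtain ⟨t', -, rfl⟩ := Finset.mem_map.1 ht
    exact t'.2
  · intro g hg
    obtain ⟨t, ⟨ht1, ht2⟩, hu⟩ := hT ⟨g, hg⟩
    refine ⟨t, ⟨Finset.mem_map.2 ⟨t, ht1, rfl⟩, ?_⟩, ?_⟩
    · have := Subgroup.mem_subgroupOf.1 ht2
      simpa using this
    · rintro t2 ⟨ht3, ht4⟩
      obtain ⟨t', ht', rfl⟩ := Finset.mem_map.1 ht3
      have := hu t' ⟨ht', Subgroup.mem_subgroupOf.2 (by simpa using ht4)⟩
      rw [this]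
      rfl
  · intro x hx
    have := hc ⟨x, hDC hx⟩ (Subgroup.mem_subgroupOf.2 hx)
    have h2 := emb_cj (Cn (Subgroup.zpowers z)) ⟨x, hDC hx⟩ c
    rw [this] at h2
    exact h2.symm
  · rw [Finset.sum_map, hbl, ← htr, pre_emb_sum]
    refine Finset.sum_congr rfl fun t _ => ?_
    rw [emb_mul, emb_mul, emb_of, emb_of]
    rfl
  · rw [hbl, ← hsum, pre_emb_sum]
    refine Finset.sum_congr rfl fun j _ => ?_
    rw [emb_mul, emb_mul]
  · obtain ⟨n, hn⟩ := hnil
    exact ⟨n, by rw [← emb_pow, hn, emb_zero]⟩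
  · intro r hr
    have h1 := pre_emb_L0 (Cn (Subgroup.zpowers z)) (hsp (rst _ r))
    rwa [emb_mul, emb_mul, emb_rst _ hr] at h1

end Cfsg.Agent.Lib.Helper83.CY2S
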