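import Cfsg.Agent.Lib.Helper82.CY2U.LOC1
import Cfsg.Agent.Lib.Helper83.CY2S.Defs

set_option autoImplicit false
set_option linter.unusedSectionVars false
set_option linter.unusedVariables false

/-! # Ladder CY2S: the local block facts L1-L4, on top of helper82's `LPre` -/

namespace Cfsg.Agent.Lib.Helper83.CY2S

open scoped BigOperators Pointwise
open Cfsg Cfsg.Agent.Lib.Helper20 Cfsg.Agent.Lib.Helper81 Cfsg.Agent.Lib.Helper80
open Cfsg.Agent.Lib.Helper80.GA Cfsg.Agent.Lib.Helper5 Cfsg.Agent.Lib.Helper83.Wat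
open Cfsg.Agent.Lib.Helper82.CY2U

/-- generator of a cyclic quotient -/
theorem loc_gen {G : Type*} [Group G] [Finite G] {K T : Subgroup G} [hn : (K.subgroupOf T).Normal]
    (hcyc : IsCyclic (T ⧸ K.subgroupOf T)) :
    ∃ g0 ∈ T, g0 ^ (K.relIndex T) ∈ K ∧ (∀ g ∈ T, ∃ j < K.relIndex T, g * (g0 ^ j)⁻¹ ∈ K) ∧
      ∀ j, 0 < j → j < K.relIndex T → g0 ^ j ∉ K := by
  classical
  obtain ⟨q, hq⟩ := hcyc.exists_generator
  obtain ⟨g0, rfl⟩ := QuotientGroup.mk_surjective q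
  have hord : orderOf (QuotientGroup.mk g0 : T ⧸ K.subgroupOf T) = K.relIndex T := by
    rw [orderOf_eq_card_of_forall_mem_zpowers hq, Subgroup.relIndex, Subgroup.index_eq_card]
  have hmem : ∀ t : T, (QuotientGroup.mk t : T ⧸ K.subgroupOf T) = 1 ↔ (t : G) ∈ K := by
    intro t
    rw [QuotientGroup.eq_one_iff, Subgroup.mem_subgroupOf]
  refine ⟨g0, g0.2, ?_, ?_, ?_⟩
  · have h1 : (QuotientGroup.mk (g0 ^ K.relIndex T) : T ⧸ K.subgroupOf T) = 1 := by
      rw [QuotientGroup.mk_pow, ← hord, pow_orderOf_eq_one]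
    have := (hmem _).1 h1
    simpa using this
  · intro g hg
    have h1 : (QuotientGroup.mk (⟨g, hg⟩ : T) : T ⧸ K.subgroupOf T) ∈
        Subgroup.zpowers (QuotientGroup.mk g0 : T ⧸ K.subgroupOf T) := hq _
    rw [← mem_powers_iff_mem_zpowers, mem_powers_iff_mem_range_orderOf] at h1
    obtain ⟨j, hj, hj2⟩ := Finset.mem_image.1 h1
    rw [Finset.mem_range, hord] at hj
    refine ⟨j, hj, ?_⟩
    have h2 : (QuotientGroup.mk ((⟨g, hg⟩ : T) * (g0 ^ j)⁻¹) : T ⧸ K.subgroupOf T) = 1 := by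
      rw [QuotientGroup.mk_mul, QuotientGroup.mk_inv, QuotientGroup.mk_pow, hj2, mul_inv_cancel]
    have := (hmem _).1 h2
    simpa using this
  · intro j hj0 hj hmemK
    have h1 : (QuotientGroup.mk (g0 ^ j) : T ⧸ K.subgroupOf T) = 1 :=
      (hmem _).2 (by simpa using hmemK)
    rw [QuotientGroup.mk_pow] at h1
    have := orderOf_dvd_of_pow_eq_one h1
    rw [hord] at this
    exact absurd (Nat.le_of_dvd hj0 this) (by omega)

variable {p : ℕ} [Fact p.Prime] {M : Ideal AlgInt} {G : Type*} [Group G] [Fintype G]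
variable (hM : IsPModular p M) {B : Set (IrrCharacter G)} {D : Subgroup G} {eD : GA (Kr hM) G}
  {z : G} {β : Set (IrrCharacter (Cn (Subgroup.zpowers z)))}

theorem loc_rank (h : LPre hM B D eD z β) : blockRank p β = 1 := by
  have : Fintype (Cn (Subgroup.zpowers z)) := Fintype.ofFinite _
  exact (Cfsg.Agent.S4689.result p M hM β h.nil).1

theorem loc_def [Fintype (Cn (Subgroup.zpowers z))] (h : LPre hM B D eD z β) :
    IsDef p ⊤ (blkR hM β) (D.subgroupOf (Cn (Subgroup.zpowers z))) :=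
  isDef_of_isDefectGroup hM h.blk h.dg

theorem loc_le (hcyc : IsCyclic D) (h : LPre hM B D eD z β) : D ≤ Cn (Subgroup.zpowers z) :=
  le_Cn_of_abelian (loc1_ab hcyc) (by rw [Subgroup.zpowers_le]; exact h.zD)

theorem loc_cyc (hcyc : IsCyclic D) (h : LPre hM B D eD z β) :
    IsCyclic (D.subgroupOf (Cn (Subgroup.zpowers z))) :=
  isCyclic_of_surjective (Subgroup.subgroupOfEquivOfLe (loc_le hM hcyc h)).symm
    (Subgroup.subgroupOfEquivOfLe (loc_le hM hcyc h)).symm.surjective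

theorem loc_bp (hmax : IsMaxBP p (blkR hM B) D eD) (h : LPre hM B D eD z β) :
    IsBPOf p (blkR hM B) (Subgroup.zpowers z) (bl hM (Cn (Subgroup.zpowers z)) β) :=
  h.le.isBPOf_iff.1 hmax.1

theorem loc_orth (hmax : IsMaxBP p (blkR hM B) D eD) (h : LPre hM B D eD z β) :
    ∀ g ∈ Nn (Subgroup.zpowers z), g ∉ stabP (Subgroup.zpowers z) (bl hM (Cn (Subgroup.zpowers z)) β) →
      bl hM (Cn (Subgroup.zpowers z)) β * cj g (bl hM (Cn (Subgroup.zpowers z)) β) = 0 := by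
  intro g hg hgs
  have hb : IsBlk (Cn (Subgroup.zpowers z)) (bl hM (Cn (Subgroup.zpowers z)) β) :=
    (loc_bp hM hmax h).1.2
  have hb' := hb.cj g
  rw [cS_Cn_of_mem_Nn hg] at hb'
  rcases hb.eq_or_orth hb' with h1 | h1
  · exact absurd (mem_stabP.2 ⟨hg, h1.symm⟩) hgs
  · exact h1

theorem loc_ti (hcyc : IsCyclic D) (hD1 : D ≠ ⊥) (hmax : IsMaxBP p (blkR hM B) D eD)
    (h : LPre hM B D eD z β) :
    ∀ g, g ∉ Nn (Subgroup.zpowers z) → ∀ u ∈ D, g⁻¹ * u * g ∈ D → u = 1 := by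
  intro g hg u hu hgu
  have h1 := (Cfsg.Agent.S4636.result p D hmax.1.1.1 hD1 hcyc (Subgroup.zpowers z)
    (by rw [Subgroup.zpowers_le]; exact h.zD) (by rw [Nat.card_zpowers, h.zo])).1 g hg
  have h2 : u ∈ D ⊓ MulAut.conj g • D := by
    refine ⟨hu, ?_⟩
    have h3 : u ∈ MulAut.conj g • D := by
      rw [Subgroup.mem_pointwise_smul_iff_inv_smul_mem]
      simpa [MulAut.smul_def, MulAut.conj_inv_apply] using hgu
    exact h3
  rw [h1] at h2
  exact h2

theorem loc_Nn (hcyc : IsCyclic D) (hD1 : D ≠ ⊥) (hmax : IsMaxBP p (blkR hM B) D eD)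
    (h : LPre hM B D eD z β) : Nn D ≤ Nn (Subgroup.zpowers z) :=
  (Cfsg.Agent.S4636.result p D hmax.1.1.1 hD1 hcyc (Subgroup.zpowers z)
    (by rw [Subgroup.zpowers_le]; exact h.zD) (by rw [Nat.card_zpowers, h.zo])).2 D le_rfl hD1

theorem loc_stab_le (hcyc : IsCyclic D) (hD1 : D ≠ ⊥) (hmax : IsMaxBP p (blkR hM B) D eD)
    (h : LPre hM B D eD z β) :
    stabP D eD ≤ stabP (Subgroup.zpowers z) (bl hM (Cn (Subgroup.zpowers z)) β) := by
  intro y hy
  have hyN : y ∈ Nn (Subgroup.zpowers z) := loc_Nn hM hcyc hD1 hmax h hy.1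
  refine mem_stabP.2 ⟨hyN, ?_⟩
  have h1 := h.le.cj y
  simp only at h1
  rw [cS_eq_self_of_mem_Nn hyN, cS_eq_self_of_mem_Nn hy.1, hy.2] at h1
  exact hmax.1.1.subpair_unique _ _ _ _ rfl h1 h.le

theorem loc_g0 (hcyc : IsCyclic D) (hD1 : D ≠ ⊥) (hmax : IsMaxBP p (blkR hM B) D eD)
    (h : LPre hM B D eD z β) :
    ∃ g0 ∈ stabP (Subgroup.zpowers z) (bl hM (Cn (Subgroup.zpowers z)) β),
      0 < (Cn D).relIndex (stabP D eD) ∧ (((Cn D).relIndex (stabP D eD) : ℕ) : Kr hM) ≠ 0 ∧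
      g0 ^ ((Cn D).relIndex (stabP D eD)) ∈ Cn (Subgroup.zpowers z) ∧
      (∀ g ∈ stabP (Subgroup.zpowers z) (bl hM (Cn (Subgroup.zpowers z)) β),
        ∃ j < (Cn D).relIndex (stabP D eD), g * (g0 ^ j)⁻¹ ∈ Cn (Subgroup.zpowers z)) ∧
      ∀ j, 0 < j → j < (Cn D).relIndex (stabP D eD) → g0 ^ j ∉ Cn (Subgroup.zpowers z) := by
  have hp : p.Prime := Fact.out
  have hab := loc1_ab hcyc
  have hfree := loc1_free hM hcyc hmax
  have hz1 : z ≠ 1 := by
    intro h1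
    have := h.zo
    rw [h1, orderOf_one] at this
    exact hp.one_lt.ne this
  have hR : Subgroup.zpowers z ≤ D := by rw [Subgroup.zpowers_le]; exact h.zD
  have hCC : Cn D ≤ Cn (Subgroup.zpowers z) := Cn_anti hR
  have hn : ((Cn D).subgroupOf (stabP D eD)).Normal :=
    Subgroup.normal_subgroupOf_of_le_normalizer ((stabP_le_Nn D eD).trans (Nn_le_normalizer_Cn D))
  obtain ⟨hq, hdvd⟩ := cyc_quot hmax.1.1.1 hD1 hcyc (stabP_le_Nn D eD) hfree
  obtain ⟨g0, hg0, hg0e, hcos, hdist⟩ := loc_gen hq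
  have hpos : 0 < (Cn D).relIndex (stabP D eD) :=
    Nat.pos_of_dvd_of_pos hdvd (by have := hp.two_le; omega)
  have hsl := loc_stab_le hM hcyc hD1 hmax h
  refine ⟨g0, hsl hg0, hpos, ?_, hCC hg0e, ?_, ?_⟩
  · rw [Ne, CharP.cast_eq_zero_iff (Kr hM) p]
    intro hpe
    have h1 := Nat.le_of_dvd (by have := hp.two_le; omega) (hpe.trans hdvd)
    have := hp.two_le
    omega
  · intro g hg
    obtain ⟨y, hy, c, hc, rfl⟩ := hmax.abelian_factor hab h.le hg
    obtain ⟨j, hj, hj2⟩ := hcos y hy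
    refine ⟨j, hj, ?_⟩
    have hgN : g0 ^ j ∈ Nn (Subgroup.zpowers z) :=
      (stabP_le_Nn _ _) (Subgroup.pow_mem _ (hsl hg0) j)
    have h2 : g0 ^ j * c * (g0 ^ j)⁻¹ ∈ Cn (Subgroup.zpowers z) := by
      have := (Subgroup.mem_normalizer_iff.1 (Nn_le_normalizer_Cn _ hgN) c).1 hc
      exact this
    have h3 : y * c * (g0 ^ j)⁻¹ = (y * (g0 ^ j)⁻¹) * (g0 ^ j * c * (g0 ^ j)⁻¹) := by group
    rw [h3]
    exact Subgroup.mul_mem _ (hCC hj2) h2
  · intro j hj0 hj hmem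
    apply hdist j hj0 hj
    apply hfree _ (Subgroup.pow_mem _ hg0 j) z h.zD hz1
    have := mem_Cn.1 hmem z (Subgroup.mem_zpowers z)
    rw [← this]; group

end Cfsg.Agent.Lib.Helper83.CY2S
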